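import Cfsg.Agent.Lib.NE8.Alpha1
import Cfsg.Agent.Lib.G2S.Syl

/-! # NE8: identification of the Sylow 2-subgroups of type `G₂(q)` (helper76) -/

set_option autoImplicit false
set_option linter.style.haveILetI false

namespace H45.NE8

open Cfsg H45 H69 H23.GW Subgroup H91.G2S

universe u

theorem three_pow_two_pow (j : ℕ) : ∃ r, Odd r ∧ 3 ^ 2 ^ (j + 1) = 2 ^ (j + 3) * r + 1 := by
  induction j with
  | zero => exact ⟨1, odd_one, by norm_num⟩
  | succ j ih =>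
    obtain ⟨r, hr, e⟩ := ih
    refine ⟨2 * (2 ^ (j + 1) * r ^ 2) + r, (even_two_mul _).add_odd hr, ?_⟩
    rw [pow_succ 2 (j + 1), pow_mul, e]
    ring

theorem exists_field_g2 (j : ℕ) : ∃ (F : Type) (_ : Field F) (_ : Fintype F), Fintype.card F % 8 = 1 ∧
    ∀ P : Sylow 2 (Cfsg.Lie.chevG2.group F),
      Nonempty ((P : Subgroup (Cfsg.Lie.chevG2.group F)) ≃* Md (ZMod (2 ^ (j + 1 + 2)))) := by
  haveI : Fact (Nat.Prime 2) := ⟨Nat.prime_two⟩
  haveI : Fact (Nat.Prime 3) := ⟨Nat.prime_three⟩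
  obtain ⟨r, hr, e⟩ := three_pow_two_pow j
  let F := GaloisField 3 (2 ^ (j + 1))
  letI : Fintype F := Fintype.ofFinite F
  have hq : Nat.card F = 2 ^ (j + 3) * r + 1 := by rw [← e]; exact GaloisField.card 3 _ (by positivity)
  refine ⟨F, inferInstance, inferInstance, ?_, fun P => ?_⟩
  · rw [← Nat.card_eq_fintype_card, hq, pow_add, mul_right_comm]; omega
  have hc := Cfsg.Agent.S1059.result (F := F) rfl
  have h1 := Fintype.one_lt_card (α := F)
  rw [← Nat.card_eq_fintype_card] at h1 hc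
  have hF : Odd (Nat.card F) := by rw [hq, pow_succ', mul_assoc]; exact odd_two_mul_add_one _
  obtain ⟨c, c1, c2⟩ := H10.exists_two_elt hF (k := j + 1 + 1) (by omega)
    (Or.inl ⟨r, by rw [hq, Nat.add_sub_cancel]; ring⟩)
  obtain ⟨f, hf⟩ := exists_inj_g2 (H10.two_ne_zero_of_odd_card hF) c1 c2
  haveI : Finite (Cfsg.Lie.chevG2.group F) := Nat.finite_of_card_ne_zero (by
    rw [hc]
    exact mul_ne_zero (mul_ne_zero (by positivity) (Nat.sub_ne_zero_of_lt (Nat.one_lt_pow two_ne_zero h1)))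
      (Nat.sub_ne_zero_of_lt (Nat.one_lt_pow (by norm_num) h1)))
  refine H10.nonempty_sylow_equiv_of_injective f hf (k := 2 * (j + 1 + 2) + 2)
    (m := (r * (2 * (2 ^ (j + 1) * r) + 1)) ^ 2 *
      (Nat.card F ^ 6 * (Nat.card F ^ 4 + Nat.card F ^ 2 + 1)))
    (by rw [Md.card, Nat.card_zmod]; ring) ?_ ?_ P
  · rw [hc, hq]
    generalize hx : 2 ^ (j + 3) * r = q
    rw [show (q + 1) ^ 2 - 1 = q * (q + 2) from Nat.sub_eq_of_eq_add (by ring),
      show (q + 1) ^ 6 - 1 = q * (q + 2) * ((q + 1) ^ 4 + (q + 1) ^ 2 + 1) from Nat.sub_eq_of_eq_add (by ring)]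
    calc _ = (q * (q + 2)) ^ 2 * ((q + 1) ^ 6 * ((q + 1) ^ 4 + (q + 1) ^ 2 + 1)) := by ring
      _ = _ := by
        rw [show q * (q + 2) = 2 ^ (j + 4) * (r * (2 * (2 ^ (j + 1) * r) + 1)) by rw [← hx]; ring]
        ring
  · rw [← even_iff_two_dvd, Nat.not_even_iff_odd]
    exact (hr.mul (odd_two_mul_add_one _)).pow.mul (hF.pow.mul ((hF.pow.add_odd hF.pow).add_one))

variable {G : Type u} [Group G] [Finite G] {S U A M : Subgroup G} {z u β m s t : G} {n : ℕ}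

theorem TB2.md (b : TB2 S U A M β m s n) (h : Tr S U z u β) (ht : t ∈ S) (htU : t ∉ 𝐂(U))
    (ht2 : t * t = 1) (hβ : t * β * t⁻¹ = β⁻¹) (hi : ∀ x ∈ M, s * x * s⁻¹ = x⁻¹) :
    Nonempty (Md (ZMod (2 ^ n)) ≃* S) := by
  haveI : Fact (Nat.Prime 2) := ⟨Nat.prime_two⟩
  have h0 := h.toSt
  obtain ⟨k, rfl⟩ : ∃ k, n = k + 2 := ⟨n - 2, by have := b.two_le; omega⟩
  have hM0 : M ≤ S ⊓ 𝐂(U) := b.hM.le.trans (inf_le_inf_left _ (centralizer_anti b.sub))
  have hMn : S ≤ 𝐍(M) := b.hM ▸ le_normalizer_inf le_normalizer (le_normalizer_centralizer b.nrm)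
  have hom : ∀ x ∈ M, x ^ 2 ^ (k + 1) ∈ U := fun x hx =>
    h0.omM b.toAl (pow_mem (hM0 hx).1 _) (pow_mem (b.hM.le hx).2 _)
      (by rw [← pow_add, ← two_mul, ← pow_succ']; exact b.expM x hx)
  have hm : m ^ 2 ^ (k + 1) ≠ 1 := fun e => by
    have := Nat.le_of_dvd (by positivity) (b.ord ▸ orderOf_dvd_of_pow_eq_one e)
    have := Nat.pow_lt_pow_right (a := 2) (by norm_num) (show k + 1 < k + 2 by omega)
    omega
  obtain ⟨a, ha, ha1, haz⟩ : ∃ a ∈ M, a ^ 2 ^ (k + 1) ≠ 1 ∧ a ^ 2 ^ (k + 1) ≠ z := by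
    by_cases e : m ^ 2 ^ (k + 1) = z
    · refine ⟨β * m * β⁻¹, (b.gen m b.mem hm).1.le (mem_sup_right (mem_zpowers _)), ?_⟩
      rw [conj_pow, e, h.rz]
      exact ⟨h0.u_ne, h.four.ne.symm⟩
    · exact ⟨m, b.mem, hm, e⟩
  have hz : a ^ 2 ^ (k + 1) * (t * a ^ 2 ^ (k + 1) * t⁻¹) = z := by
    rcases h0.comm_z ht (hom a ha) with e | e
    · exact ((h0.mem_z ht htU (hom a ha) e).elim ha1 haz).elim
    · rw [e, ← mul_assoc, mem_cent1_iff.1 (h.zc (h.le (hom a ha))), mul_assoc, h0.sqU (hom a ha), mul_one]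
  have hts : t * s * t⁻¹ = s := by
    refine (b.uniq _ (conj_mem_of_mem_normalizer (h0.nrm0 ht) b.mem0) ?_).resolve_left fun e => ?_
    · have e1 : β * t = t * β⁻¹ := by
        calc β * t = (t * β * t⁻¹)⁻¹ * t := by rw [hβ, inv_inv]
          _ = _ := by group
      calc β * (t * s * t⁻¹) * β⁻¹ = β * t * s * (β * t)⁻¹ := by group
        _ = t * (β⁻¹ * (β * s * β⁻¹) * β) * t⁻¹ := by rw [e1, b.fix]; group
        _ = _ := by group
    · have e2 : s = 1 := by simpa using e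
      have e3 := hi m b.mem
      rw [e2, one_mul, inv_one, mul_one] at e3
      refine hm ?_
      rw [pow_succ', pow_mul, pow_two, mul_eq_one_iff_eq_inv.2 e3, one_pow]
  have hb := conj_mem_of_mem_normalizer (hMn ht) ha
  let a' : S := ⟨a, (hM0 ha).1⟩
  let b' : S := ⟨t * a * t⁻¹, (hM0 hb).1⟩
  have AN : a' ^ 2 ^ (k + 2) = 1 := Subtype.ext (b.expM a ha)
  have AB : Commute a' b' := Subtype.ext (b.commM _ ha _ hb)
  obtain ⟨f, hf⟩ := Md.exists_hom (R := ZMod (2 ^ (k + 2))) (fun x => a' ^ x.val) (fun x => b' ^ x.val)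
    (⟨t, ht⟩ : S) ⟨s, b.mem0.1⟩ (H10.pow_val_add AN) (fun x y => (AB.pow_pow _ _).eq)
    (Subtype.ext ht2) (Subtype.ext b.sq) (Subtype.ext (conj_eq_iff.1 hts))
    (fun x => SemiconjBy.pow_right (show SemiconjBy _ a' b' from Subtype.ext (by simp [a', b'])) _)
    (fun x => by
      rw [H10.pow_val_neg AN, ← inv_pow]
      exact SemiconjBy.pow_right (show SemiconjBy _ a' a'⁻¹ from
        Subtype.ext (mul_inv_eq_iff_eq_mul.1 (hi a ha))) _)
  haveI : Finite (Md (ZMod (2 ^ (k + 2)))) := Finite.of_equiv _ Md.equivProd.symm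
  have hinj : Function.Injective f := by
    refine (MonoidHom.ker_eq_bot_iff f).1 ?_
    by_contra hn
    obtain ⟨p, p1, p2, p3⟩ := H5.exists_mem_center_orderOf_eq (p := 2)
      (IsPGroup.of_card (n := 2 * (k + 2) + 2) (by rw [Md.card, Nat.card_zmod]; ring)) f.ker hn
    rcases (hyp_zmod k).center (Subgroup.mem_center_iff.1 p2) with rfl | rfl
    · rw [orderOf_one] at p3; omega
    · have e : (2 * 2 ^ k : ZMod (2 ^ (k + 2))) = ((2 ^ (k + 1) : ℕ) : ZMod (2 ^ (k + 2))) := by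
        push_cast; ring
      rw [MonoidHom.mem_ker, hf, e, ZMod.val_cast_of_lt (Nat.pow_lt_pow_right one_lt_two (by omega))] at p1
      refine h0.z_ne (hz.symm.trans ?_)
      rw [← conj_pow]
      exact congrArg Subtype.val p1
  refine ⟨MulEquiv.ofBijective f ((Nat.bijective_iff_injective_and_card f).2 ⟨hinj, ?_⟩)⟩
  have hsM : s ∉ M := fun e => by
    have e3 := hi m b.mem
    rw [b.commM s e m b.mem, mul_inv_cancel_right] at e3
    refine hm ?_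
    rw [pow_succ', pow_mul, pow_two, mul_eq_one_iff_eq_inv.2 e3, one_pow]
  have hss : s * s ∈ M := b.sq ▸ one_mem M
  have e0 : S ⊓ 𝐂(U) = M ⊔ zpowers s :=
    le_antisymm (fun x hx => (mem_sup_zp (hMn b.mem0.1) hss).2 (by rw [inv_self b.sq]; exact b.eq x hx))
      (sup_le hM0 (zpowers_le.2 b.mem0))
  have e1 := card_sup_zp (hMn b.mem0.1) hss hsM
  rw [← e0, b.cardM] at e1
  rcases h0.card_le2 with e | e
  · exact absurd ((eq_of_le_of_card_ge inf_le_left e.le).ge ht).2 htU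
  · rw [e, e1, Md.card, Nat.card_zmod, show (4 : ℕ) ^ (k + 2) = (2 ^ 2) ^ (k + 2) from rfl, ← pow_mul,
      ← pow_mul, mul_comm 2 (k + 2), mul_assoc _ 2 2]
    rfl

theorem TB2.g2 (b : TB2 S U A M β m s n) (h : Tr S U z u β) (ht : t ∈ S) (htU : t ∉ 𝐂(U))
    (ht2 : t * t = 1) (hβ : t * β * t⁻¹ = β⁻¹) (hi : ∀ x ∈ M, s * x * s⁻¹ = x⁻¹) :
    ∃ (F : Type) (_ : Field F) (_ : Fintype F), (Fintype.card F % 8 = 1 ∨ Fintype.card F % 8 = 7) ∧
      ∃ P : Sylow 2 (Cfsg.Lie.chevG2.group F),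
        Nonempty (S ≃* (P : Subgroup (Cfsg.Lie.chevG2.group F))) := by
  obtain ⟨e⟩ := b.md h ht htU ht2 hβ hi
  obtain ⟨j, rfl⟩ : ∃ j, n = j + 1 + 2 := ⟨n - 3, by have := b.three_le; omega⟩
  obtain ⟨F, _, _, h1, h2⟩ := exists_field_g2 j
  obtain ⟨P⟩ := (Sylow.nonempty : Nonempty (Sylow 2 (Cfsg.Lie.chevG2.group F)))
  obtain ⟨e'⟩ := h2 P
  exact ⟨F, inferInstance, inferInstance, Or.inl h1, P, ⟨e.symm.trans e'.symm⟩⟩

end H45.NE8
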