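import Cfsg.Agent.Lib.NE8.Comm
import Cfsg.Agent.Lib.NE8.Tri
import Cfsg.Agent.Lib.LocEven.Idx

/-! # NE8, case `B2`: the involution `s` inverts `M` (helper45) -/

set_option autoImplicit false
set_option linter.unusedSectionVars false

namespace H45.NE8

open Cfsg H45 H69 H23.GW Subgroup

universe u

variable {G : Type u} [Group G] {S U A M : Subgroup G} {z u β m s t y : G} {n : ℕ}

/-- congruence modulo `⟨z⟩` -/
def Qz (z x y : G) : Prop := x * y⁻¹ ∈ zpowers z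

namespace Qz

variable {a b c d g : G}

theorem of_eq (h : a = b) : Qz z a b := by rw [Qz, h, mul_inv_cancel]; exact one_mem _

theorem rfl : Qz z a a := of_eq (Eq.refl a)

theorem zmul : Qz z (z * a) a := by rw [Qz, mul_inv_cancel_right]; exact mem_zpowers z

theorem symm (h : Qz z a b) : Qz z b a := by
  have := inv_mem h
  rwa [mul_inv_rev, inv_inv] at this

theorem trans (h : Qz z a b) (h' : Qz z b c) : Qz z a c := by
  have := mul_mem h h'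
  rwa [mul_assoc, inv_mul_cancel_left] at this

theorem nz (hg : g ∈ 𝐂[z]) (h : a ∈ zpowers z) : g * a * g⁻¹ = a :=
  conj_eq_of_mem_centralizer (by rwa [centralizer_zpowers]) h

theorem conj (h : Qz z a b) (hg : g ∈ 𝐂[z]) : Qz z (g * a * g⁻¹) (g * b * g⁻¹) := by
  rw [Qz, show g * a * g⁻¹ * (g * b * g⁻¹)⁻¹ = g * (a * b⁻¹) * g⁻¹ by group, nz hg h]; exact h

theorem mul (h : Qz z a b) (h' : Qz z c d) (ha : a ∈ 𝐂[z]) : Qz z (a * c) (b * d) := by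
  rw [Qz, show a * c * (b * d)⁻¹ = a * (c * d⁻¹) * a⁻¹ * (a * b⁻¹) by group, nz ha h']
  exact mul_mem h' h

theorem mulr (h : Qz z a b) (c : G) : Qz z (a * c) (b * c) := by
  rw [Qz, show a * c * (b * c)⁻¹ = a * b⁻¹ by group]; exact h

theorem conj_mul (h : Qz z (g * a * g⁻¹) b) (h' : Qz z (g * c * g⁻¹) d) (hb : b ∈ 𝐂[z]) :
    Qz z (g * (a * c) * g⁻¹) (b * d) :=
  (of_eq (by group)).trans (h.symm.mul h'.symm hb).symm

theorem mem {K : Subgroup G} (h : Qz z a b) (hz : z ∈ K) (hb : b ∈ K) : a ∈ K := by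
  have := mul_mem (zpowers_le.2 hz h) hb
  rwa [inv_mul_cancel_right] at this

theorem comm (h : Qz z a b) (hc : c ∈ 𝐂[z]) (e : c * b = b * c) : c * a = a * c :=
  (mem_cent1_iff.1 (h.mem (K := 𝐂[c]) (mem_cent1_iff.2 (mem_cent1_iff.1 hc).symm)
    (mem_cent1_iff.2 e.symm))).symm

theorem cases (h : Qz z a b) (zz : z * z = 1) : a = b ∨ a = z * b :=
  (H70.mem_zpowers_of_sq (by rw [pow_two, zz]) h).imp mul_inv_eq_one.1 eq_mul_of_mul_inv_eq

theorem sq (h : Qz z a b) (zz : z * z = 1) (hb : b ∈ 𝐂[z]) : a * a = b * b := by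
  rcases h.cases zz with rfl | rfl
  · rfl
  · rw [mul_assoc, ← mul_assoc b, mem_cent1_iff.1 hb, mul_assoc, ← mul_assoc, zz, one_mul]

theorem swap (h : Qz z (a * b * a⁻¹) b) : Qz z (a * b) (b * a) := by
  simpa using h.mulr a

end Qz

/-- the elements centralising `z`, and `x` modulo `⟨z⟩` -/
def Fq (z x : G) : Subgroup G where
  carrier := {g | g ∈ 𝐂[z] ∧ Qz z (g * x * g⁻¹) x}
  mul_mem' := fun {a b} ha hb => ⟨mul_mem ha.1 hb.1,
    ((Qz.of_eq (by group)).trans (hb.2.conj ha.1)).trans ha.2⟩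
  one_mem' := ⟨one_mem _, Qz.of_eq (by group)⟩
  inv_mem' := fun {a} ha => ⟨inv_mem ha.1,
    ((Qz.of_eq (by group)).trans (ha.2.conj (inv_mem ha.1))).symm⟩

theorem Fq.conj {g w x x' : G} (hw : w ∈ Fq z x) (hg : g ∈ 𝐂[z]) (hx : x ∈ 𝐂[z])
    (h : Qz z (g * x * g⁻¹) x') : g * w * g⁻¹ ∈ Fq z x' := by
  have _ := hx
  have h1 := mul_mem (mul_mem hg hw.1) (inv_mem hg)
  exact ⟨h1, (((h.symm.conj h1).trans (Qz.of_eq (by group))).trans (hw.2.conj hg)).trans h⟩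

theorem Fq.mul {w a c : G} (h : w ∈ Fq z a) (h' : w ∈ Fq z c) (ha : a ∈ 𝐂[z]) : w ∈ Fq z (a * c) :=
  ⟨h.1, h.2.conj_mul h'.2 ha⟩

theorem Fq.pow {r x x' : G} (hr : r ∈ 𝐂[z]) (h3 : Qz z (r ^ 3 * x * (r ^ 3)⁻¹) x)
    (h : Qz z (r * x * r⁻¹) x') {k : ℕ} (hk : k % 3 = 1) : Qz z (r ^ k * x * (r ^ k)⁻¹) x' := by
  have := ((Fq z x).pow_mem (x := r ^ 3) ⟨pow_mem hr 3, h3⟩ (k / 3)).2.conj hr
  refine ((Qz.of_eq ?_).trans this).trans h
  rw [← pow_mul]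
  nth_rw 1 2 [show k = 1 + 3 * (k / 3) by omega]
  group

/-- `t` an involution outside `C_S(U)` and `y` an element of order four of `C_M(t)` -/
structure Ty (S U M : Subgroup G) (z s t y : G) : Prop where
  mem : t ∈ S
  not : t ∉ 𝐂(U)
  tt : t * t = 1
  ts : t * s = s * t
  yM : y ∈ M
  yy : y * y = z
  ty : t * y * t⁻¹ = y

variable [Finite G]

namespace Tr

variable (h : Tr S U z u β)
include h

theorem to_z {w : G} (hw : w ∈ U) (h1 : w ≠ 1) : ∃ γ ∈ zpowers β, γ * w * γ⁻¹ = z := by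
  have e : β * (z * u) * β⁻¹ = z := by
    rw [← conj_mul, h.rz, h.ru, ← mul_assoc, ← h.four.comm.eq, mul_assoc, h.four.bb, mul_one]
  rcases h.four.mem_iff.1 hw with rfl | rfl | rfl | rfl
  · exact absurd rfl h1
  · exact ⟨1, one_mem _, by group⟩
  · exact ⟨β * β, mul_mem (mem_zpowers β) (mem_zpowers β), by rw [← e, ← h.ru]; group⟩
  · exact ⟨β, mem_zpowers β, e⟩

theorem to_u {w : G} (hw : w ∈ U) (h1 : w ≠ 1) : ∃ γ ∈ zpowers β, γ * w * γ⁻¹ = u := by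
  obtain ⟨γ, h2, h3⟩ := h.to_z hw h1
  exact ⟨β * γ, mul_mem (mem_zpowers β) h2, by rw [← h.rz, ← h3]; group⟩

end Tr

theorem St.qz_u (h : St S U z u) {w : G} (hw : w ∈ U) : Qz z w 1 ∨ Qz z w u := by
  rcases h.four.mem_iff.1 hw with rfl | rfl | rfl | rfl
  exacts [.inl .rfl, .inl ((Qz.of_eq (mul_one _).symm).trans .zmul), .inr .rfl, .inr .zmul]

theorem St.not_qz (h : St S U z u) : ¬ Qz z u 1 := fun e => by
  rcases e.cases h.four.aa with e | e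
  exacts [h.u_ne e, h.four.ne (by rw [e, mul_one])]

theorem St.fq_u (h : St S U z u) : S ≤ Fq z u := fun w hw => ⟨h.zc hw, by
  rcases h.comm_z hw h.four.mem_right with e | e <;> rw [e]
  exacts [.rfl, .zmul]⟩

namespace TB2

variable (b : TB2 S U A M β m s n) (h : Tr S U z u β)
include b h

theorem UM : U ≤ M := b.sub.trans (b.cx h.toSt).le1

theorem M0 : M ≤ S ⊓ 𝐂(U) := (b.cx h.toSt).le0

theorem sq_U {w : G} (hw : w ∈ S ⊓ 𝐂(U)) (hM : w ∉ M) : w * w ∈ U := by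
  have := b.tw _ ((b.eq w hw).resolve_left hM)
  rwa [show w * s * (s * (w * s) * s⁻¹) = w * (s * s) * w by group, b.sq, mul_one] at this

theorem pow_M {w : G} (hw : w ∈ S) (h2 : w * w * (w * w) * (w * w * (w * w)) = 1)
    (h1 : w * w * (w * w) ≠ 1) (hz : w * w * (w * w) ≠ z) : w ∈ M := by
  by_contra hM
  by_cases h0 : w ∈ 𝐂(U)
  · exact h1 (h.toSt.sqU (b.sq_U h ⟨hw, h0⟩ hM))
  · have : w * w * (w * w) ∈ U := by
      by_cases h3 : w * w ∈ M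
      · exact b.toTB.om h.toSt (mul_mem h3 h3) h2
      · exact b.sq_U h ⟨mul_mem hw hw, h.toSt.sq_mem0 hw⟩ h3
    exact (h.toSt.mem_z hw h0 this (by group)).elim h1 hz

theorem fibt (ht : t ∈ S) (htU : t ∉ 𝐂(U)) {v w : G} (hv : v ∈ M) (hw : w ∈ M) (e : v * v = w * w)
    (h1 : t * v * t⁻¹ = v) (h2 : t * w * t⁻¹ = w) : Qz z v w := by
  rcases h.toSt.mem_z ht htU (h.toSt.sq_fib b.toAl (b.hM.le hw) (b.hM.le hv) e.symm)
    (by rw [← conj_mul, ← conj_inv, h1, h2]) with e | e <;> rw [Qz, e]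
  exacts [one_mem _, mem_zpowers z]

theorem exists_c (ht : t ∈ S) (htU : t ∉ 𝐂(U)) (tt : t * t = 1) :
    ∃ c ∈ M, t * c * t⁻¹ = c ∧ c * c * (c * c) = z := by
  obtain ⟨k, rfl⟩ : ∃ k, n = k + 3 := ⟨n - 3, by have := b.three_le; omega⟩
  have e : ∀ x : G, x * x * (x * x) = x ^ 4 := fun x => by simp [pow_succ, mul_assoc]
  obtain ⟨γ, h1, h2⟩ := h.to_u (w := (m ^ 2 ^ k) ^ 4) (b.toTB.om h.toSt (pow_mem (pow_mem b.mem _) _)
    (by rw [← pow_add, ← pow_mul, ← b.expM m b.mem]; congr 1; ring)) fun e => by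
    have := orderOf_dvd_of_pow_eq_one (by rw [← pow_mul] at e; exact e)
    rw [b.ord, pow_add] at this
    exact absurd (Nat.dvd_of_mul_dvd_mul_left (by positivity) this) (by norm_num)
  have hv := conj_mem_of_mem_normalizer (zpowers_le.2 (b.toTB.nM h) h1) (pow_mem b.mem (2 ^ k))
  rw [← conj_pow] at h2
  generalize γ * m ^ 2 ^ k * γ⁻¹ = v at h2 hv
  have hv' := conj_mem_of_mem_normalizer (b.toTB.nrmM ht) hv
  have c : Commute v (t * v * t⁻¹) := b.commM _ hv _ hv'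
  refine ⟨v * (t * v * t⁻¹), mul_mem hv hv', ?_, ?_⟩
  · rw [c.eq, ← conj_mul, show t * (t * v * t⁻¹) * t⁻¹ = t * t * v * (t * t)⁻¹ by group, tt]
    simpa using c.eq
  · rw [e, c.mul_pow, conj_pow, h2, h.toSt.conj_u ht htU, ← mul_assoc, ← h.four.comm.eq, mul_assoc,
      h.four.bb, mul_one]

variable (q : Ty S U M z s t y)
include q

theorem yA : y ∈ A := b.alp y (b.toTB.leM q.yM) (b.hM.le q.yM).2 (by
  rw [show y ^ 4 = y * y * (y * y) by simp [pow_succ, mul_assoc], q.yy, h.four.aa])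

theorem yz : y⁻¹ = z * y := by
  rw [inv_eq_iff_mul_eq_one, ← q.yy, show y * (y * y * y) = y * y * (y * y) by group, q.yy, h.four.aa]

theorem sy : s * y * s⁻¹ = z * y := (b.inv y (b.yA h q)).trans (b.yz h q)

theorem yS : y ∈ S := b.toTB.leM q.yM

theorem yu : y * u = u * y := b.commM _ q.yM _ (b.UM h h.four.mem_right)

theorem yuyu : y * u * (y * u) = z := by
  rw [mul_assoc, ← mul_assoc u, ← b.yu h q, mul_assoc, h.four.bb, mul_one, q.yy]

theorem symm : Ty S U M z s (t * s) (y * u) where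
  mem := mul_mem q.mem b.mem0.1
  not := fun e => q.not ((Subgroup.mul_mem_cancel_right _ b.mem0.2).1 e)
  tt := by rw [mul_assoc, ← mul_assoc s, ← q.ts, mul_assoc, b.sq, mul_one, q.tt]
  ts := by rw [← mul_assoc, ← q.ts]
  yM := mul_mem q.yM (b.UM h h.four.mem_right)
  yy := b.yuyu h q
  ty := by
    calc _ = t * (s * y * s⁻¹ * (s * u * s⁻¹)) * t⁻¹ := by group
      _ = t * z * t⁻¹ * (t * y * t⁻¹) * (t * u * t⁻¹) := by
        rw [b.sy h q, conj_eq_of_mem_centralizer b.mem0.2 h.four.mem_right]; group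
      _ = _ := by
        rw [h.toSt.conj_z q.mem, q.ty, h.toSt.conj_u q.mem q.not, ← mem_cent1_iff.1 (h.zc (b.yS h q)),
          mul_assoc, ← mul_assoc z, h.four.aa, one_mul]

theorem cent_y {w : G} (hw : w ∈ S ⊓ 𝐂(U)) (e : w * y = y * w) : w ∈ M := by
  refine (b.eq w hw).resolve_right fun hM => h.toSt.z_ne ?_
  have := b.commM _ hM _ q.yM
  rw [mul_assoc, ← mul_assoc y, ← e, mul_assoc, mul_right_inj, ← conj_eq_iff, b.sy h q] at this
  simpa using this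

theorem genS {H : Subgroup G} (h1 : M ≤ H) (h2 : s ∈ H) (h3 : t ∈ H) : S ≤ H := by
  have : S ⊓ 𝐂(U) ≤ H := fun w hw => (b.eq w hw).elim (@h1 w) fun e => (H.mul_mem_cancel_right h2).1 (h1 e)
  intro w hw
  by_cases h0 : w ∈ 𝐂(U)
  · exact this ⟨hw, h0⟩
  · exact (H.mul_mem_cancel_right h3).1 (this ⟨mul_mem hw q.mem, h.toSt.mul_mem0 hw h0 q.mem q.not⟩)

theorem fq_y : S ≤ Fq z y :=
  b.genS h q (fun _ hw => ⟨h.zc (b.toTB.leM hw), .of_eq (conj_eq_iff.2 (b.commM _ hw _ q.yM))⟩)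
    ⟨h.zc b.mem0.1, (Qz.of_eq (b.sy h q)).trans .zmul⟩ ⟨h.zc q.mem, .of_eq q.ty⟩

theorem fib {v : G} (hv : v ∈ M) (e : v * v = z) : Qz z v y ∨ Qz z v (y * u) := by
  refine (h.toSt.qz_u (h.toSt.sq_fib b.toAl (b.hM.le q.yM) (b.hM.le hv) (q.yy.trans e.symm))).imp
    (fun e => ?_) fun e => ?_
  · simpa using e.mulr y
  · simpa [b.yu h q] using e.mulr y

theorem not_qz : ¬ Qz z y (y * u) := fun e => h.toSt.not_qz (by
  rw [b.yu h q] at e
  simpa using e.symm.mulr y⁻¹)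

theorem sq_M {w : G} (hw : w ∈ S) : w * w ∈ M := by
  have key : ∀ r ∈ S, r * r = 1 → w * r ∈ M → w * w ∈ M := fun r hr e hM => by
    have := mul_mem hM (conj_mem_of_mem_normalizer (b.toTB.nrmM hr) hM)
    rwa [show w * r * (r * (w * r) * r⁻¹) = w * (r * r) * w by group, e, mul_one] at this
  by_cases h0 : w ∈ 𝐂(U)
  · exact b.hM.ge (h.toSt.sq_memM b.toAl ⟨hw, h0⟩)
  · rcases b.eq _ ⟨mul_mem hw q.mem, h.toSt.mul_mem0 hw h0 q.mem q.not⟩ with e | e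
    · exact key t q.mem q.tt e
    · exact key _ (b.symm h q).mem (b.symm h q).tt (by rwa [← mul_assoc])

theorem invol_t {w : G} (h2 : w * w = 1) (hM : w * t⁻¹ ∈ M) : ∃ c ∈ M, w = c * t * c⁻¹ := by
  obtain ⟨c, hc, e⟩ := b.toTB.h1 h.toSt q.mem q.not (q.tt ▸ one_mem _) hM (by
    rw [mul_inv_rev, inv_self h2, inv_inv, mul_assoc, mul_assoc, ← mul_inv_rev, q.tt]; simp)
  exact ⟨c, hc, by rw [eq_mul_of_mul_inv_eq e, inv_self q.tt, mul_inv_rev, mul_inv_rev,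
    inv_self q.tt]; simp [mul_assoc, q.tt]⟩

theorem sq_c {w : G} (hw : w ∈ S) (e : t * w * t⁻¹ = w) (h2 : w * w * (w * w) * (w * w * (w * w)) = 1)
    (h1 : w * w * (w * w) ≠ 1) : Qz z (w * w) y := by
  have h3 := b.sq_M h q hw
  have e2 : t * (w * w) * t⁻¹ = w * w := by rw [← conj_mul_self, e]
  refine b.fibt h q.mem q.not h3 q.yM ?_ e2 q.ty
  rw [q.yy]
  exact (h.toSt.mem_z q.mem q.not (b.toTB.om h.toSt (mul_mem h3 h3) h2)
    (by rw [← conj_mul_self, e2])).resolve_left h1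

theorem exists_c' : ∃ c ∈ M, t * c * t⁻¹ = c ∧ c * c * (c * c) = z ∧ Qz z (c * c) y := by
  obtain ⟨c, h1, h2, h3⟩ := b.exists_c h q.mem q.not q.tt
  exact ⟨c, h1, h2, h3, b.sq_c h q (b.toTB.leM h1) h2 (by rw [h3, h.four.aa]) (h3 ▸ h.toSt.z_ne)⟩

omit q in
theorem nz4 {v : G} (hv : v ∈ S) (e : v * v = z) (hn : S ≤ Fq z v) : v ∈ M := by
  obtain ⟨x, hx, e2⟩ := h.toSt.exists_sq b.toAl b.cardA h.four.mem_right
  have h1 := (Qz.rfl (a := v⁻¹)).mul (hn (b.le hx)).2.swap (inv_mem (h.zc hv))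
  rw [inv_mul_cancel_left] at h1
  have h2 := h1.sq h.four.aa (h.zc (b.le hx))
  rw [show v⁻¹ * (x * v) * (v⁻¹ * (x * v)) = v⁻¹ * (x * x) * v by group, e2] at h2
  refine (b.cx h.toSt).le1 (b.hV v ⟨hv, (h.toSt.mem0 hv).2 ?_⟩
    (fun w hw => zpowers_le.2 h.four.mem_left (hn hw.1).2) (e ▸ h.four.mem_left))
  nth_rw 1 [← h2]
  group

variable (hS : IsSylowIn 2 S ⊤)
include hS

theorem not_cj {g : G} : ¬ Qz z (g * y * g⁻¹) (y * u) := fun hg => by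
  have q' := b.symm h q
  have zy := h.zc (b.yS h q)
  have zy' := h.zc (b.yS h q')
  have gz : g ∈ 𝐂[z] := mem_cent1_iff.2 (conj_eq_iff.1 (by
    have := hg.sq h.four.aa zy'
    rwa [conj_mul_self, q.yy, q'.yy] at this))
  obtain ⟨c, hc, h1⟩ := (hS.mono (b.fq_y h q') le_top).exists_cj_le (isPGroup_cj hS.isP g)
    fun x hx => by
      obtain ⟨w, hw, rfl⟩ := mem_cj'.1 hx
      exact Fq.conj (b.fq_y h q hw) gz zy hg
  rw [cj_cj] at h1
  have hk : c * g ∈ 𝐍(S) := cj_eq_self_iff.1 (eq_of_le_of_card_ge h1 (card_cj S _).ge)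
  have kz := mul_mem hc.1 gz
  have ky : Qz z (c * g * y * (c * g)⁻¹) (y * u) :=
    ((Qz.of_eq (by group)).trans (hg.conj hc.1)).trans hc.2
  generalize c * g = k at hk kz ky
  have vv : k * (y * u) * k⁻¹ * (k * (y * u) * k⁻¹) = z := by
    rw [conj_mul_self, q'.yy, conj_eq_iff.2 (mem_cent1_iff.1 kz)]
  rcases b.fib h q (b.nz4 h (conj_mem_of_mem_normalizer hk (b.yS h q')) vv fun w hw => by
    simpa [mul_assoc] using
      Fq.conj (b.fq_y h q' (conj_mem_of_mem_normalizer' hk hw)) kz zy' .rfl) vv with e | e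
  · obtain ⟨j, hj, h2⟩ := odd_pow_mem hS hk
    exact b.not_qz h q ((mem_of_sq_of_odd (K := Fq z y) hj (b.fq_y h q h2) ⟨mul_mem kz kz,
      ((Qz.of_eq (by group)).trans (ky.conj kz)).trans e⟩).2.symm.trans ky)
  · exact b.not_qz h q (by simpa [mul_assoc] using (ky.trans e.symm).conj (inv_mem kz))

theorem conj_t (f : Fu G) : IsConj z t := by
  have q' := b.symm h q
  obtain ⟨c, hc, h1, h2, h3⟩ := b.exists_c' h q
  have hK : ∀ {g}, g ∈ M ⊔ zpowers (t * s) ↔ g ∈ M ∨ g * (t * s)⁻¹ ∈ M :=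
    mem_sup_zp (b.toTB.nrmM q'.mem) (q'.tt ▸ one_mem _)
  obtain ⟨g, h4, h5⟩ := f.transfer hS (K := M ⊔ zpowers (t * s))
    (sup_le b.toTB.leM (zpowers_le.2 q'.mem))
    (fun x hx w hw => hK.2 (.inl (comm_mem_of_sq b.toTB.nrmM (fun _ => b.sq_M h q) hx hw))) q.tt q.mem
    (fun x hx _ => by
      by_cases h0 : x ∈ 𝐂(U)
      · refine (b.eq x ⟨hx, h0⟩).imp (fun e => hK.2 (.inl e)) fun e => hK.2 (.inr ?_)
        rwa [inv_self q'.tt, mul_assoc, ← mul_assoc t, q.tt, one_mul]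
      · refine (b.eq _ ⟨mul_mem hx q.mem, h.toSt.mul_mem0 hx h0 q.mem q.not⟩).symm.imp
          (fun e => hK.2 (.inr ?_)) fun e => hK.2 (.inl e)
        rwa [inv_self q'.tt, ← mul_assoc])
    (R := S ⊓ 𝐂[t]) hS.isP.to_inf_left ⟨q.mem, mem_cent1_iff.2 rfl⟩ inf_le_right
  rcases hK.1 h4 with e | e
  · obtain ⟨γ, -, e'⟩ := h.to_z (b.toTB.om h.toSt e (conj_sq q.tt)) fun e =>
      q.not (by rw [conj_eq_one_iff.1 e]; exact one_mem _)
    exact (isConj_iff.2 ⟨γ * g, by rw [← e']; group⟩).symm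
  · obtain ⟨d, hd, e'⟩ := b.invol_t h q' (conj_sq q.tt) e
    have h6 : d⁻¹ * g * c * (d⁻¹ * g)⁻¹ ∈ S := by
      have := h5 (cj_mem g ⟨b.toTB.leM hc, mem_cent1_iff.2 (conj_eq_iff.1 h1).symm⟩)
      simpa [mul_assoc] using conj_mem_of_mem_normalizer' (le_normalizer (b.toTB.leM hd)) this
    have h7 : d⁻¹ * g * t * (d⁻¹ * g)⁻¹ = t * s := by
      rw [show d⁻¹ * g * t * (d⁻¹ * g)⁻¹ = d⁻¹ * (g * t * g⁻¹) * d by group, e']; group
    generalize d⁻¹ * g = k at h6 h7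
    have h8 := b.sq_c h q' h6 (by rw [← h7]; nth_rw 2 [← h1]; group)
      (by rw [conj_mul_self, conj_mul_self, h2, conj_sq h.four.aa])
      (by rw [conj_mul_self, conj_mul_self, h2]; simpa using h.toSt.z_ne)
    have h9 := h8.sq h.four.aa (h.zc (b.yS h q'))
    rw [conj_mul_self, conj_mul_self, h2, q'.yy] at h9
    rw [conj_mul_self] at h8
    exact (b.not_cj h q hS ((h3.symm.conj (mem_cent1_iff.2 (conj_eq_iff.1 h9))).trans h8)).elim

omit hS in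
theorem ut : u * t * u⁻¹ = z * t := by
  rw [inv_self h.four.bb, mul_assoc, eq_mul_of_mul_inv_eq (h.toSt.conj_u q.mem q.not), ← mul_assoc,
    ← mul_assoc, ← h.four.comm.eq, mul_assoc z, h.four.bb, mul_one]

omit hS in
theorem uN : u ∈ S ⊓ Fq z t :=
  ⟨h.toSt.u_mem, h.zc h.toSt.u_mem, (Qz.of_eq (b.ut h q)).trans .zmul⟩

theorem exists_g (hc : IsConj z t) : ∃ g ∈ 𝐂[z], g * u * g⁻¹ = t ∧ Qz z (g * t * g⁻¹) u ∧
    Qz z (g * y * g⁻¹) y ∧ ∀ w ∈ S ⊓ Fq z t, g * w * g⁻¹ ∈ S := by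
  obtain ⟨c, hc', h1, h2, h3⟩ := b.exists_c' h q
  obtain ⟨g, hg⟩ := isConj_iff.1 hc.symm
  have zt := h.zc q.mem
  have zy := h.zc (b.yS h q)
  obtain ⟨k, h4, h5⟩ := ext_central hS h.zc hg (hS.isP.to_le (zpowers_le.2 (b.toTB.leM hc')))
    (zpowers_le.2 (mem_cent1_iff.2 (conj_eq_iff.1 h1).symm))
  have e4 : ∀ k : G, k * c * k⁻¹ * (k * c * k⁻¹) * (k * c * k⁻¹ * (k * c * k⁻¹)) = k * z * k⁻¹ :=
    fun k => by rw [conj_mul_self, conj_mul_self, h2]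
  have z1 : k * z * k⁻¹ ≠ 1 := by simpa using h.toSt.z_ne
  have h6 := b.pow_M h (h5 (cj_mem k (mem_zpowers c))) (by rw [e4, conj_sq h.four.aa]) (e4 k ▸ z1) (by
    rw [e4]
    nth_rw 2 [← h4]
    intro e
    exact q.not (mul_left_cancel (mul_right_cancel e) ▸ h.four.le_cent h.four.mem_left))
  obtain ⟨γ, h7, h8⟩ := h.to_z (b.toTB.om h.toSt (e4 k ▸ mul_mem (mul_mem h6 h6) (mul_mem h6 h6))
    (conj_sq h.four.aa)) z1
  have kz : γ * k ∈ 𝐂[z] := mem_cent1_iff.2 (conj_eq_iff.1 (by nth_rw 2 [← h8]; group))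
  have kc : γ * k * c * (γ * k)⁻¹ ∈ M := by
    simpa [mul_assoc] using conj_mem_of_mem_normalizer (zpowers_le.2 (b.toTB.nM h) h7) h6
  have kt : γ * k * t * (γ * k)⁻¹ ∈ U := by
    have := conj_mem_of_mem_normalizer (zpowers_le.2 h.nU h7) h.four.mem_left
    rw [← h4] at this
    simpa [mul_assoc] using this
  generalize γ * k = k' at kz kc kt
  have kt' := (h.toSt.qz_u kt).resolve_left fun e => q.not (Qz.mem (b := 1) (by
    simpa [mul_assoc] using e.conj (inv_mem kz)) (h.four.le_cent h.four.mem_left) (one_mem _))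
  have ky : Qz z (k' * y * k'⁻¹) y := by
    have e := (h3.symm.conj kz).trans (.of_eq (conj_mul_self _ _).symm)
    exact e.trans ((b.fib h q (mul_mem kc kc) (by rw [e4, conj_eq_iff.2 (mem_cent1_iff.1 kz)])).resolve_right
      fun e' => b.not_cj h q hS (e.trans e'))
  obtain ⟨d, hd, h9⟩ := (hS.mono (le_inf h.toSt.fq_u (b.fq_y h q)) le_top).exists_cj_le
    (isPGroup_cj (hS.isP.to_inf_left (K := Fq z t)) k') fun x hx => by
      obtain ⟨w, hw, rfl⟩ := mem_cj'.1 hx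
      exact ⟨Fq.conj hw.2 kz zt kt', Fq.conj (b.fq_y h q hw.1) kz zy ky⟩
  rw [cj_cj] at h9
  have gz := mul_mem hd.1.1 kz
  have gt : Qz z (d * k' * t * (d * k')⁻¹) u :=
    ((Qz.of_eq (by group)).trans (kt'.conj hd.1.1)).trans hd.1.2
  have gy : Qz z (d * k' * y * (d * k')⁻¹) y :=
    ((Qz.of_eq (by group)).trans (ky.conj hd.1.1)).trans hd.2.2
  generalize d * k' = g at h9 gz gt gy
  have hu := h9 (cj_mem g (b.uN h q))
  have hu0 : g * u * g⁻¹ ∉ 𝐂(U) := fun e => by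
    have := gt.comm (h.zc hu) ((h.toSt.mem0 hu).1 e)
    rw [conj_mul, conj_mul, mul_left_inj, mul_right_inj] at this
    exact q.not ((h.toSt.mem0 q.mem).2 this.symm)
  have huy := gy.symm.comm (h.zc hu) (by rw [conj_mul, conj_mul, b.yu h q])
  obtain ⟨e, he, e'⟩ := b.invol_t h q (conj_sq (g := g) h.four.bb) (b.cent_y h q
    ⟨mul_mem hu (S.inv_mem q.mem), h.toSt.mul_mem0 hu hu0 (S.inv_mem q.mem) (by simpa using q.not)⟩ (by
      rw [mul_assoc _ t⁻¹, inv_self q.tt, conj_eq_iff.1 q.ty, ← mul_assoc, huy, mul_assoc y]))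
  have he' := S.inv_mem (b.toTB.leM he)
  refine ⟨e⁻¹ * g, mul_mem (h.zc he') gz, ?_,
    ((Qz.of_eq (by group)).trans (gt.conj (h.zc he'))).trans (h.toSt.fq_u he').2,
    ((Qz.of_eq (by group)).trans (gy.conj (h.zc he'))).trans (b.fq_y h q he').2, fun w hw => ?_⟩
  · rw [show e⁻¹ * g * u * (e⁻¹ * g)⁻¹ = e⁻¹ * (g * u * g⁻¹) * e by group, e']; group
  · simpa [mul_assoc] using conj_mem_of_mem_normalizer (le_normalizer he') (h9 (cj_mem g hw))

theorem exists_rho (f : Fu G) : ∃ ρ ∈ 𝐂[z], (∀ c ∈ M, t * c * t⁻¹ = c → ρ * c * ρ⁻¹ = c) ∧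
    ρ * (t * s * u) * ρ⁻¹ = t * s * u ∧ Qz z (ρ * (y * u) * ρ⁻¹) (t * u) ∧
    Qz z (ρ * (y * u * (t * u)) * ρ⁻¹) (y * u) := by
  obtain ⟨g, gz, gu, gt, gy, gS⟩ := b.exists_g h q hS (b.conj_t h q hS f)
  obtain ⟨x, hx, e2⟩ := h.toSt.exists_sq b.toAl b.cardA h.four.mem_right
  have q' := b.symm h q
  have hxM := (b.cx h.toSt).le1 hx
  have hxS := b.le hx
  have zt := h.zc q.mem
  have zy := h.zc (b.yS h q)
  have zu := h.zc h.toSt.u_mem
  have zx := h.zc hxS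
  have uu := h.four.bb
  have tu : t * u = z * (u * t) := by rw [← mul_assoc, ← h.toSt.conj_u q.mem q.not]; group
  have xt : Qz z (x * t * x⁻¹) (y * u * t) := by
    have hx' := conj_mem_of_mem_normalizer (b.toTB.nrmM q.mem) hxM
    have e : x * (t * x * t⁻¹)⁻¹ * (x * (t * x * t⁻¹)⁻¹) = z := by
      rw [mul_assoc, ← mul_assoc _ x, b.commM _ (inv_mem hx') _ hxM, mul_assoc, ← mul_inv_rev,
        conj_mul_self, ← mul_assoc, e2, h.toSt.conj_u q.mem q.not, mul_inv_rev, mul_inv_cancel_left,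
        inv_self h.four.aa]
    rcases b.fib h q (mul_mem hxM (inv_mem hx')) e with e' | e'
    · have := e'.comm zt (conj_eq_iff.1 q.ty)
      refine absurd (e.symm.trans ?_) h.toSt.z_ne
      nth_rw 1 [← conj_eq_iff.2 this]
      rw [show t * (x * (t * x * t⁻¹)⁻¹) * t⁻¹ * (x * (t * x * t⁻¹)⁻¹) =
        t * x * t⁻¹ * (t * t * x⁻¹ * (t * t)⁻¹ * x) * (t * x * t⁻¹)⁻¹ by group, q.tt]
      simp
    · exact (Qz.of_eq (by group)).trans (e'.mulr t)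
  have rz := mul_mem zx gz
  have ru : Qz z (x * g * u * (x * g)⁻¹) (y * u * t) := (Qz.of_eq (by rw [← gu]; group)).trans xt
  have rt : Qz z (x * g * t * (x * g)⁻¹) u :=
    ((Qz.of_eq (by group)).trans (gt.conj zx)).trans (h.toSt.fq_u hxS).2
  have ry : Qz z (x * g * y * (x * g)⁻¹) y :=
    ((Qz.of_eq (by group)).trans (gy.conj zx)).trans (b.fq_y h q hxS).2
  have rS : ∀ w ∈ S ⊓ Fq z t, x * g * w * (x * g)⁻¹ ∈ S := fun w hw => by
    simpa [mul_assoc] using conj_mem_of_mem_normalizer (le_normalizer hxS) (gS w hw)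
  generalize x * g = r at rz ru rt ry rS
  have yyu : y * (y * u * t) = z * (u * t) := by rw [← q.yy]; group
  have rw' : Qz z (r * (y * u * t) * r⁻¹) t :=
    ((ry.conj_mul ru zy).conj_mul rt (mul_mem zy (mul_mem (mul_mem zy zu) zt))).trans (.of_eq (by
      rw [yyu, ← tu, mul_assoc, uu, mul_one]))
  have rN : r ∈ 𝐍(S ⊓ Fq z t) := norm_of_conj fun w hw => ⟨rS w hw, Fq.conj (Fq.mul (Fq.mul
    (b.fq_y h q hw.1) (h.toSt.fq_u hw.1) zy) hw.2 (mul_mem zy zu)) rz (mul_mem (mul_mem zy zu) zt) rw'⟩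
  have cube : ∀ {a c d : G}, Qz z (r * a * r⁻¹) c → Qz z (r * c * r⁻¹) d → Qz z (r * d * r⁻¹) a →
      Qz z (r ^ 3 * a * (r ^ 3)⁻¹) a := fun h1 h2 h3 =>
    ((Qz.of_eq (by simp [pow_succ, mul_assoc])).trans (((h1.conj rz).trans h2).conj rz)).trans h3
  obtain ⟨k, -, -, -, ho, hk, -⟩ := exists_three_part r
  have pu := Fq.pow rz (cube ru rw' rt) ru hk
  have pt := Fq.pow rz (cube rt ru rw') rt hk
  have py := Fq.pow rz (cube ry ry ry) ry hk
  have pz := pow_mem rz k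
  have pN := pow_mem rN k
  generalize r ^ k = ρ at ho pu pt py pz pN
  have tr : ∀ {w a a' : G}, w ∈ S ⊓ Fq z t → Qz z (ρ * a * ρ⁻¹) a' → w * a = a * w →
      a' ∈ 𝐂[ρ * w * ρ⁻¹] := fun hw h1 h2 => mem_cent1_iff.2 (h1.symm.comm
    (h.zc (conj_mem_of_mem_normalizer pN hw).1) (by rw [conj_mul, conj_mul, h2])).symm
  have back : ∀ w ∈ S, u ∈ 𝐂[w] → y ∈ 𝐂[w] → t ∈ 𝐂[w] → w ∈ M ⊓ 𝐂[t] := fun w hw h1 h2 h3 =>
    ⟨b.cent_y h q ⟨hw, (h.toSt.mem0 hw).2 (mem_cent1_iff.1 h1).symm⟩ (mem_cent1_iff.1 h2).symm,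
      mem_cent1_iff.2 (mem_cent1_iff.1 h3).symm⟩
  have pC : ∀ c ∈ M ⊓ 𝐂[t], ρ * c * ρ⁻¹ ∈ M ⊓ 𝐂[t] := fun c hc => by
    have hN : c ∈ S ⊓ Fq z t := ⟨b.toTB.leM hc.1, h.zc (b.toTB.leM hc.1),
      .of_eq (conj_eq_iff.2 (mem_cent1_iff.1 hc.2))⟩
    have h1 := tr hN pt (mem_cent1_iff.1 hc.2)
    have h2 := tr hN py (b.commM _ hc.1 _ q.yM)
    exact back _ (conj_mem_of_mem_normalizer pN hN).1 h1 h2 ((Subgroup.mul_mem_cancel_left _
      (mul_mem h2 h1)).1 (tr hN pu (b.commM _ hc.1 _ (b.UM h h.four.mem_right))))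
  have key : ∀ j, ∀ c ∈ M ⊓ 𝐂[t], c ^ 2 ^ j = 1 → ρ * c * ρ⁻¹ = c := by
    intro j
    induction j with
    | zero => intro c _ e; rw [pow_zero, pow_one] at e; rw [e]; group
    | succ j ih =>
      intro c hc e
      have h1 := ih (c * c) (mul_mem hc hc) (by rw [← pow_two, ← pow_mul, ← pow_succ', e])
      rw [← conj_mul_self] at h1
      exact cent_of_stab ho (hS.isP.to_le (zpowers_le.2 h.toSt.z_mem))
        (by rwa [centralizer_zpowers]) (b.fibt h q.mem q.not (pC c hc).1 hc.1 h1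
          (conj_eq_iff.2 (mem_cent1_iff.1 (pC c hc).2).symm) (conj_eq_iff.2 (mem_cent1_iff.1 hc.2).symm))
  have pc : ∀ c ∈ M ⊓ 𝐂[t], ρ * c * ρ⁻¹ = c := fun c hc => key n c hc (b.expM c hc.1)
  have i1 : Qz z (ρ * (y * u) * ρ⁻¹) (t * u) := (py.conj_mul pu zy).trans (.of_eq (yyu.trans tu.symm))
  have i2 : Qz z (ρ * (t * u) * ρ⁻¹) (y * u * (t * u)) :=
    (pt.conj_mul pu zu).trans (((Qz.of_eq (by
      rw [tu, ← mul_assoc, mem_cent1_iff.1 (mul_mem zy zu)]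
      nth_rw 1 [b.yu h q]
      group)).trans .zmul).symm)
  refine ⟨ρ, pz, fun c hc e => pc c ⟨hc, mem_cent1_iff.2 (conj_eq_iff.1 e).symm⟩, ?_, i1,
    (i1.conj_mul i2 (mul_mem zt zu)).trans ?_⟩
  · have su := (h.toSt.mem0 b.mem0.1).1 b.mem0.2
    have aN : t * s * u ∈ S ⊓ Fq z t := mul_mem (mul_mem ⟨q.mem, zt, .of_eq (by group)⟩
      ⟨b.mem0.1, h.zc b.mem0.1, .of_eq (conj_eq_iff.2 q.ts.symm)⟩) (b.uN h q)
    have a1 : t * s * u * (y * u) = y * u * (t * s * u) := by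
      rw [← mul_assoc (y * u), ← conj_eq_iff.1 q'.ty, mul_assoc (t * s), mul_assoc (t * s),
        b.commM _ q'.yM _ (b.UM h h.four.mem_right)]
    have a2 : t * s * u * (t * u) = t * u * (t * s * u) := by
      calc _ = t * (s * u) * t * u := by group
        _ = t * u * (s * t) * u := by rw [su]; group
        _ = _ := by rw [← q.ts]; group
    have h1 := tr aN i1 a1
    have h2 := (Subgroup.mul_mem_cancel_right _ h1).1 (tr aN i2 a2)
    have hS' := (conj_mem_of_mem_normalizer pN aN).1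
    have n0 : t * s * u ∉ 𝐂(U) := fun e => q'.not
      ((Subgroup.mul_mem_cancel_right _ (h.four.le_cent h.four.mem_right)).1 e)
    have n1 : ρ * (t * s * u) * ρ⁻¹ ∉ 𝐂(U) := fun e => by
      have h3 := mem_cent1_iff.1 ((Subgroup.mul_mem_cancel_right _
        (mem_cent1_iff.2 ((h.toSt.mem0 hS').1 e).symm)).1 h2)
      rw [← pc y ⟨q.yM, mem_cent1_iff.2 (conj_eq_iff.1 q.ty).symm⟩, conj_mul, conj_mul, mul_left_inj,
        mul_right_inj] at h3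
      exact n0 ((h.toSt.mem0 aN.1).2 (mem_cent1_iff.1 ((Subgroup.mul_mem_cancel_left _
        (mem_cent1_iff.2 h3)).1 (mem_cent1_iff.2 a1.symm))).symm)
    have c : ∀ {v w w' : G}, v ∈ 𝐂[w] → w' * v = v * w' → v ∈ 𝐂[w * w'⁻¹] := fun h1 h2 =>
      mem_cent1_iff.2 (Commute.mul_right (mem_cent1_iff.1 h1) (Commute.inv_right h2.symm))
    have h4 := mem_cent1_iff.2 ((h.toSt.mem0 (mul_mem hS' (S.inv_mem aN.1))).1
      (h.toSt.mul_mem0 hS' n1 (S.inv_mem aN.1) fun e => n0 (inv_mem_iff.1 e))).symm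
    exact cent_of_stab ho (hS.isP.to_le (inf_le_left.trans b.toTB.leM))
      (mem_centralizer_iff_commute.2 fun c hc => (conj_eq_iff.1 (pc c hc)).symm)
      (back _ (mul_mem hS' (S.inv_mem aN.1)) h4 ((Subgroup.mul_mem_cancel_right _ h4).1 (c h2 a1))
        ((Subgroup.mul_mem_cancel_right _ h4).1 (c h1 a2)))
  · have := ((b.fq_y h q' (mul_mem q.mem h.toSt.u_mem)).2.mulr (t * u * (t * u))).trans
      (.of_eq (show y * u * (t * u * (t * u)) = z * (y * u) by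
        rw [← mem_cent1_iff.1 (mul_mem zy zu), mul_right_inj]
        nth_rw 1 [tu]
        rw [mul_assoc, mul_assoc, ← mul_assoc t, q.tt, one_mul, uu, mul_one]))
    exact ((Qz.of_eq (by group)).trans this).trans .zmul

omit q hS in
theorem lam (f : Fu G) (hS : IsSylowIn 2 S ⊤)
    (ht : t ∈ S) (htU : t ∉ 𝐂(U)) (ht2 : t * t = 1) (hβ : t * β * t⁻¹ = β⁻¹) :
    ∀ x ∈ M, s * x * s⁻¹ = x⁻¹ := by
  by_contra H
  push Not at H
  obtain ⟨x, hx, hn⟩ := H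
  have ts : t * s = s * t := conj_eq_iff.1 ((b.uniq _ ((b.cx h.toSt).conj_mem h.toSt ht).1 (by
    calc _ = (t * β * t⁻¹)⁻¹ * (t * (β * s * β⁻¹) * t⁻¹) * (t * β * t⁻¹) := by rw [hβ, b.fix, inv_inv]
      _ = _ := by group)).resolve_left fun e =>
        (b.cx h.toSt).s_not (by rw [conj_eq_one_iff.1 e]; exact one_mem _))
  obtain ⟨c, h1, h2, h3⟩ := b.exists_c h ht htU ht2
  have q : Ty S U M z s t (c * c) := ⟨ht, htU, ht2, ts, mul_mem h1 h1, h3, by rw [← conj_mul_self, h2]⟩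
  generalize c * c = y at q
  have q' := b.symm h q
  obtain ⟨γ, h4, h5⟩ := h.to_u (b.tw x hx) fun e => hn (eq_inv_of_mul_eq_one_right e)
  have hω := conj_mem_of_mem_normalizer (zpowers_le.2 (b.toTB.nM h) h4) hx
  have sω : s * (γ * x * γ⁻¹) * s⁻¹ = (γ * x * γ⁻¹)⁻¹ * u := by
    have : γ * s = s * γ := mem_cent1_iff.1 (zpowers_le.2 (mem_cent1_iff.2 (conj_eq_iff.1 b.fix)) h4)
    rw [← h5]
    nth_rw 1 2 [← conj_eq_iff.2 this]
    group
  generalize γ * x * γ⁻¹ = ω at hω sω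
  have hω' := conj_mem_of_mem_normalizer (b.toTB.nrmM ht) hω
  have sω' : s * (t * ω * t⁻¹) * s⁻¹ = (t * ω * t⁻¹)⁻¹ * (z * u) := by
    rw [← h.toSt.conj_u ht htU]
    calc _ = s * t * ω * (s * t)⁻¹ := by group
      _ = t * (s * ω * s⁻¹) * t⁻¹ := by rw [← ts]; group
      _ = _ := by rw [sω]; group
  have tω' : t * (t * ω * t⁻¹) * t⁻¹ = ω := by
    rw [show t * (t * ω * t⁻¹) * t⁻¹ = t * t * ω * (t * t)⁻¹ by group, ht2]; simp
  have hu := b.UM h h.four.mem_right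
  have hzu := b.UM h h.four.mem_mul
  have act : ∀ v ∈ M, t * s * u * v = t * (s * v * s⁻¹) * t⁻¹ * (t * s * u) := fun v hv => by
    rw [mul_assoc (t * s), b.commM _ hu _ hv]; group
  obtain ⟨ρ, z2, c2, a2, i2, j2⟩ := b.exists_rho h q hS f
  obtain ⟨σ, z1, c1, a1, i1, j1⟩ := b.exists_rho h q' hS f
  have e1 : t * s * s = t := by rw [mul_assoc, b.sq, mul_one]
  have e2 : y * u * u = y := by rw [mul_assoc, h.four.bb, mul_one]
  rw [e1] at a1
  rw [e2] at i1 j1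
  have zω := h.zc (b.toTB.leM hω)
  have zt := h.zc ht
  have zy := h.zc (b.yS h q)
  have cP : t * ((t * ω * t⁻¹ * ω)⁻¹ * y) * t⁻¹ = (t * ω * t⁻¹ * ω)⁻¹ * y := by
    rw [← conj_mul, q.ty, ← conj_inv, ← conj_mul, tω', b.commM _ hω _ hω']
  have hP := inv_mem (mul_mem hω' hω)
  have ea : ω⁻¹ * (t * s * u) * ω⁻¹⁻¹ = (t * ω * t⁻¹ * ω)⁻¹ * y * (y * u) * (t * s * u) := by
    rw [inv_inv, mul_assoc, act ω hω, sω, ← conj_mul, h.toSt.conj_u ht htU, ← q.yy]; group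
  have eT : σ * (ω * t * ω⁻¹) * σ⁻¹ = ω * t * ω⁻¹ := by
    have e : ω * t * ω⁻¹ = ω * (t * ω * t⁻¹)⁻¹ * (z * u) * (t * u) := by
      rw [← h.toSt.conj_u ht htU]
      calc _ = ω * t * ω⁻¹ * (u * u) := by rw [h.four.bb, mul_one]
        _ = _ := by group
    rw [e, ← conj_mul, a1, c1 _ (mul_mem (mul_mem hω (inv_mem hω')) hzu)]
    calc _ = t * (s * ω * s⁻¹ * (s * (t * ω * t⁻¹) * s⁻¹)⁻¹ * (s * (z * u) * s⁻¹)) * t⁻¹ := by group
      _ = t * (ω⁻¹ * u * ((z * u)⁻¹ * (t * ω * t⁻¹ * (z * u)))) * t⁻¹ := by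
        rw [sω, sω', conj_eq_of_mem_centralizer b.mem0.2 h.four.mem_mul]; group
      _ = (t * ω * t⁻¹)⁻¹ * (t * u * t⁻¹) * (t * (t * ω * t⁻¹) * t⁻¹) := by
        rw [b.commM _ hω' _ hzu]; group
      _ = _ := by
        rw [tω', h.toSt.conj_u ht htU, b.commM _ (mul_mem (inv_mem hω') hzu) _ hω, mul_assoc ω]
  have step : ∀ {p p' k : G}, (∃ g, Qz z (g * y * g⁻¹) p) → k ∈ 𝐂[z] → Qz z (k * p * k⁻¹) p' →
      ∃ g, Qz z (g * y * g⁻¹) p' := fun {_ _ k} ⟨g, hg⟩ hk e =>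
    ⟨k * g, ((Qz.of_eq (by group)).trans (hg.conj hk)).trans e⟩
  have s2 := step ⟨σ, i1⟩ (inv_mem zω) (.of_eq ea)
  have s3 := step s2 z2 (p' := t * y * (ω⁻¹ * (t * s * u) * ω⁻¹⁻¹)) (by
    rw [← conj_mul, a2, ← conj_mul, c2 _ (mul_mem hP q.yM) cP]
    refine ((Qz.rfl.mul i2 (h.zc (b.toTB.leM (mul_mem hP q.yM)))).mulr _).trans ((Qz.of_eq ?_).trans .zmul)
    rw [ea, ← mul_assoc _ t, ← conj_eq_iff.1 cP, ← mul_assoc z, ← mul_assoc z, ← mem_cent1_iff.1 zt,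
      mul_assoc t z, ← b.yz h q]
    generalize (t * ω * t⁻¹ * ω)⁻¹ = P at hP
    rw [← b.commM _ q.yM _ hP]
    nth_rw 1 [b.commM _ q.yM _ hP]
    group)
  have s4 := step s3 zω (p' := ω * t * ω⁻¹ * (y * (t * s * u))) (.of_eq (by
    nth_rw 2 [← conj_eq_iff.2 (b.commM _ hω _ q.yM)]
    group))
  have s5 := step s4 z1 (Qz.conj_mul (.of_eq eT) j1 (mul_mem (mul_mem zω zt) (inv_mem zω)))
  have s6 := step s5 (inv_mem zω) (p' := y * u * (t * u)) (((Qz.of_eq (by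
    have e3 := b.ut h q
    rw [inv_self h.four.bb] at e3
    rw [show y * u * (t * u) = y * (u * t * u) by group, e3, ← mul_assoc, mem_cent1_iff.1 zy,
      mul_assoc z, ← conj_eq_iff.1 q.ty, mul_right_inj]
    nth_rw 2 [← conj_eq_iff.2 (b.commM _ hω _ q.yM)]
    group)).trans .zmul).symm)
  obtain ⟨g, hg⟩ := step s6 z2 j2
  exact b.not_cj h q hS hg

end TB2

end H45.NE8
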